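import Cfsg.Agent.KnownB.Proj.Symp.Lang
import Cfsg.Agent.KnownB.AutPSL.Classes

/-! Field automorphism classes of `PSp_{2m}(q)`. -/

set_option autoImplicit false

namespace Cfsg.Agent.KnownB.Proj.Symp

open Matrix
open Cfsg.Agent.KnownB.AutPSL (fixSub mem_fixSub)

universe u v

variable {m : ℕ} {F : Type u} [Field F] [Fintype F]

omit [Fintype F] in
theorem field_class (hm : 2 ≤ m) {x : MulAut (Cfsg.PSp m F)} (hx : Cfsg.IsFieldAutClassPSp x) :
    ∃ (α : MulAut (Cfsg.PSp m F)) (σ : F ≃+* F), σ ≠ 1 ∧ α * x * α⁻¹ = Fd m F σ ∧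
      orderOf σ = orderOf x := by
  obtain ⟨α, σ, hσ, h⟩ := hx
  rw [isStdField_iff] at h
  refine ⟨α, σ, hσ, h, ?_⟩
  rw [← orderOf_injective (Fd m F) (fd_injective hm) σ, ← h, ← MulAut.conj_apply,
    MulEquiv.orderOf_eq]

theorem index_fix_units {p f r : ℕ} [Fact p.Prime] (hF : Fintype.card F = p ^ f) {σ : F ≃+* F}
    {F₀ : Type v} [Field F₀] [Fintype F₀] (hF₀ : Fintype.card F₀ = p ^ (f / r)) (ι : F₀ →+* F)
    (hι : ∀ x : F, σ x = x ↔ x ∈ ι.range) :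
    (fixSub (Units.map (σ : F →* F))).index = (p ^ f - 1) / (p ^ (f / r) - 1) := by
  classical
  have hr0 : (Units.map (ι : F₀ →* F)).range = fixSub (Units.map (σ : F →* F)) := by
    ext u
    rw [mem_fixSub, MonoidHom.mem_range]
    constructor
    · rintro ⟨v, rfl⟩
      exact Units.ext ((hι _).mpr ⟨v, rfl⟩)
    · intro hu
      obtain ⟨v, hv⟩ := (hι _).mp (congrArg Units.val hu)
      have hv0 : v ≠ 0 := by rintro rfl; rw [map_zero] at hv; exact u.ne_zero hv.symm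
      exact ⟨Units.mk0 v hv0, Units.ext hv⟩
  have hcard : Nat.card (fixSub (Units.map (σ : F →* F))) = p ^ (f / r) - 1 := by
    have hinj : Function.Injective (Units.map (ι : F₀ →* F)) := Units.map_injective ι.injective
    rw [← hr0, ← Nat.card_congr (MonoidHom.ofInjective hinj).toEquiv, Nat.card_units,
      Nat.card_eq_fintype_card, hF₀]
  have hmul := Subgroup.card_mul_index (fixSub (Units.map (σ : F →* F)))
  rw [hcard, Nat.card_units, Nat.card_eq_fintype_card, hF] at hmul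
  have h2 : 2 ≤ p ^ (f / r) := hF₀ ▸ Fintype.one_lt_card
  exact (Nat.div_eq_of_eq_mul_right (by omega) hmul.symm).symm

theorem gcd_two_div {q₀ r : ℕ} (h : 2 ≤ q₀) :
    Nat.gcd (Nat.gcd 2 (q₀ ^ r - 1)) ((q₀ ^ r - 1) / (q₀ - 1)) =
      Nat.gcd (Nat.gcd 2 (q₀ ^ r - 1)) r := by
  rw [← Nat.geomSum_eq h]
  obtain hg | hg := (Nat.dvd_prime Nat.prime_two).mp (Nat.gcd_dvd_left 2 (q₀ ^ r - 1))
  · rw [hg, Nat.gcd_one_left, Nat.gcd_one_left]
  rw [hg]
  by_cases hr : r = 0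
  · simp [hr]
  have hodd : q₀ % 2 = 1 := by
    by_contra hne
    have h2 : (2 : ℕ) ∣ q₀ ^ r := dvd_pow (Nat.dvd_of_mod_eq_zero (by omega)) hr
    have h3 : (2 : ℕ) ∣ q₀ ^ r - 1 := hg ▸ Nat.gcd_dvd_right _ _
    have : 1 ≤ q₀ ^ r := Nat.one_le_pow _ _ (by omega)
    omega
  have hmod : (∑ i ∈ Finset.range r, q₀ ^ i) % 2 = r % 2 := by
    rw [Finset.sum_nat_mod]
    simp [Nat.pow_mod, hodd]
  rw [Nat.gcd_rec 2, Nat.gcd_rec 2 r, hmod]

end Cfsg.Agent.KnownB.Proj.Symp
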